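import Mathlib
import Cfsg.Agent.H944.E6Tab

/-!
# Real elements of order 6 of `E₆` (helper944)

`Tor.six_real` : the table of the real elements `x` with `x ^ 6 = 1` of the simply connected group, characteristic at
least 5: `(ev V x³, ev V x², ev L x², tr V x, tr L x)` is in the list `S6`; `six_real'` gives in addition
`ev V x` and `ev L x`.
-/

set_option autoImplicit false

namespace Cfsg.Agent.H944.E6T

open Cfsg.Lie Module
open Cfsg.Agent.ChevalleyStructure Cfsg.Agent.ChevalleyStructure.Elts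
open Cfsg.Agent.ChevalleyStructure.E6Min.Tables Cfsg.Agent.ChevalleyStructure.E6Min.Basic
  Cfsg.Agent.ChevalleyStructure.E6Min.Checks Cfsg.Agent.ChevalleyStructure.E6Min.Adjoint
  Cfsg.Agent.ChevalleyStructure.E6Min.Forms
open Cfsg.Agent.H952.F4 (ev es matRep)
open Cfsg.Agent.H163.E6 (V L)
open Cfsg.Agent.BpExc.TorAll

universe u

/-- the table for `m = 6`: (multiplicities on `V`, on `L`), 8 bits each -/
def T6 : List (ℕ × ℕ) := [
  (0x1b00000000, 0x4e), (0x60f06000000, 0x140100011424), (0x1000000b0000, 0x2000002e), (0xc00000f0000, 0x28000026),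
  (0x1b0000, 0x4e), (0x60f0600, 0x140100011424), (0xf00000c00, 0x28000026), (0xb00001000, 0x2000002e),
  (0x80908010001, 0x10080008101e), (0xa0505050101, 0xb0a0a0a0b1a), (0x108090801, 0x10080008101e),
  (0x10505050a01, 0xb0a0a0a0b1a), (0x80204070402, 0x80d100d0814), (0x40704020802, 0x80d100d0814),
  (0x60906030003, 0x120904091214), (0x60303090303, 0xb0a120a0b12), (0x60506030403, 0xc0f080f0c10),
  (0x50406040503, 0xa0e0c0e0a12), (0x30903030603, 0xb0a120a0b12), (0x40306050603, 0xc0f080f0c10),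
  (0x306090603, 0x120904091214), (0x50705040204, 0xe0a0c0a0e12), (0x80402070204, 0xc0910090c14),
  (0x60405030504, 0xa0e0c0e0a12), (0x20405070504, 0xe0a0c0a0e12), (0x50305040604, 0xa0e0c0e0a12),
  (0x20702040804, 0xc0910090c14), (0x5050a010105, 0xb0a0a0a0b1a), (0x40504050405, 0xe0d0c0d0e0c),
  (0x40504050405, 0xc0c100c0c0e), (0xa0101050505, 0xb0a0a0a0b1a), (0x1010a050505, 0xb0a0a0a0b1a),
  (0x60304030605, 0xc0f080f0c10), (0x50501010a05, 0xb0a0a0a0b1a), (0xf00060006, 0x1500150024),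
  (0x6000f0006, 0x1500150024), (0x20408040207, 0xc0910090c14), (0x40208020407, 0x80d100d0814),
  (0x50402040507, 0xe0a0c0a0e12), (0x900090009, 0x1b001b0018), (0x900090009, 0x180018001e),
  (0x30306030309, 0xb0a120a0b12), (0x60300030609, 0x120904091214), (0x80100010809, 0x10080008101e),
  (0x1000000b, 0x2000002e), (0xc00000f, 0x28000026), (0x60006000f, 0x1500150024), (0x6000000060f, 0x140100011424),
  (0x1b, 0x4e)]

theorem chk60 : chk 6 0 T6 = true := by decide +kernel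
theorem chk61 : chk 6 1 T6 = true := by decide +kernel
theorem chk62 : chk 6 2 T6 = true := by decide +kernel

/-- the sums for a function on the coordinates are in the table -/
theorem core_sum6 {b : I27 → ZMod 6} (hb : ∀ x y, rel x y = 2 → b x + b y + b (th x y) = 0) :
    ∃ p ∈ T6, p.1 = ∑ x : I27, W8 (b x) ∧
      p.2 = ∑ r ∈ Finset.range 72, W8 (b (row r) - b (sr r (row r))) + 6 := by
  have hP := par_par hb
  have h1 : ∃ p ∈ T6, p.1 = ∑ x : I27, W8 (b x) ∧
      p.2 + 3 = ∑ r ∈ Finset.range 72, W8 (b (row r) - b (sr r (row r))) + 9 * W8 (0 : ZMod 6) := by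
    rw [sum_coord hb, sum_root hb]
    obtain ⟨t, s, hs3, ht⟩ : ∃ (t : ZMod 6) (s : ℕ), s < 3 ∧ par b 9 + 3 * t = ((s : ℕ) : ZMod 6) :=
      (by decide : ∀ a : ZMod 6, ∃ (t : ZMod 6) (s : Fin 3), a + 3 * t = ((s.val : ℕ) : ZMod 6)) (par b 9) |>.elim
        fun t h => h.elim fun s h => ⟨t, s.val, s.isLt, h⟩
    have hc : chk 6 s T6 = true := by
      have : s = 0 ∨ s = 1 ∨ s = 2 := by omega
      rcases this with rfl | rfl | rfl
      · exact chk60
      · exact chk61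
      · exact chk62
    rw [← sV_shift W8 _ _ _ t, ← sL_shift W8 _ _ _ _ t, ht]
    refine core_nat (by omega) hc _ _ _ ?_ ?_ ?_
    · rw [← ht]
      have := hP.x
      show par b 0 + t + (par b 1 + t) + (par b 2 + t) = _
      linear_combination this
    · rw [← ht]
      have := hP.y
      show par b 3 + t + (par b 4 + t) + (par b 5 + t) = _
      linear_combination this
    · rw [← ht]
      have := hP.z
      show par b 6 + t + (par b 7 + t) + (par b 8 + t) = _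
      linear_combination this
  obtain ⟨p, hp, h2, h3⟩ := h1
  refine ⟨p, hp, h2, ?_⟩
  have h4 : W8 (0 : ZMod 6) = 1 := by unfold W8; simp
  rw [h4] at h3
  omega

/-- the numbers of the coordinates and roots with given level, `m = 6` -/
theorem core6 {b : I27 → ZMod 6} (hb : ∀ x y, rel x y = 2 → b x + b y + b (th x y) = 0) :
    ∃ p ∈ T6, ∀ j < 6, ((Finset.univ : Finset I27).filter fun x => (b x).val = j).card = dg p.1 j ∧
      (if j = 0 then 6 else 0) +
        ((Finset.univ : Finset (Fin 72)).filter fun r => (b (row r.val) - b (sr r.val (row r.val))).val = j).card =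
        dg p.2 j := by
  obtain ⟨p, hp, h1, h2⟩ := core_sum6 hb
  refine ⟨p, hp, fun j hj => ⟨?_, ?_⟩⟩
  · rw [h1, sum_levels, dg_sum 6 _ _ j hj]
    intro i _
    refine lt_of_le_of_lt (Finset.card_filter_le _ _) ?_
    rw [Finset.card_univ]
    decide
  · have h3 : p.2 = ∑ i ∈ Finset.range 6, ((if i = 0 then 6 else 0) +
        ((Finset.univ : Finset (Fin 72)).filter fun r =>
          (b (row r.val) - b (sr r.val (row r.val))).val = i).card) * 256 ^ i := by
      rw [h2, Finset.sum_range fun r => W8 (b (row r) - b (sr r (row r))), sum_levels]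
      simp only [add_mul, Finset.sum_add_distrib]
      rw [add_comm]
      congr 1
    rw [h3, dg_sum 6 _ _ j hj]
    intro i _
    have h4 : ((Finset.univ : Finset (Fin 72)).filter fun r =>
          (b (row r.val) - b (sr r.val (row r.val))).val = i).card ≤ 72 :=
      (Finset.card_filter_le _ _).trans (by rw [Finset.card_univ, Fintype.card_fin])
    split_ifs <;> omega

/-- powers -/
theorem diag_pow {ι G K : Type*} [Field K] [Fintype ι] [DecidableEq ι] [DecidableEq K] [Group G]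
    (σ : Representation K G (ι → K)) {x g : G} {ζ : K} (hζ : IsPrimitiveRoot ζ 6) {d : ι → K}
    (hd : ∀ k : ℕ, σ ((g * x * g⁻¹) ^ k) = Matrix.toLin' (Matrix.diagonal fun i => d i ^ k)) (hdm : ∀ i, d i ^ 6 = 1) :
    ev (σ (x ^ 2)) 1 = ev (σ x) (ζ ^ 0) + ev (σ x) (ζ ^ 3) ∧
      ev (σ (x ^ 3)) 1 = ev (σ x) (ζ ^ 0) + ev (σ x) (ζ ^ 2) + ev (σ x) (ζ ^ 4) := by
  have hk : ∀ (k : ℕ) (μ : K), ev (σ (x ^ k)) μ = (Finset.univ.filter fun i => d i ^ k = μ).card := by
    intro k μ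
    rw [← ev_conj σ g (x ^ k) μ, ← conj_pow]
    exact ev_diag _ _ (hd k)
  have h1 : ∀ μ : K, ev (σ x) μ = (Finset.univ.filter fun i => d i = μ).card := by
    intro μ
    have := hk 1 μ
    simpa only [pow_one] using this
  have h2 : ∀ i, ∃ j < 6, ζ ^ j = d i := fun i => by
    obtain ⟨j, hj, h⟩ := hζ.eq_pow_of_pow_eq_one (hdm i)
    exact ⟨j, hj, h⟩
  have h3 : ∀ a b : ℕ, a < 6 → b < 6 → a ≠ b → ζ ^ a ≠ ζ ^ b := fun a b ha hb hab h => hab (hζ.pow_inj ha hb h)
  have h4 : ∀ k j : ℕ, (ζ ^ j) ^ k = 1 ↔ 6 ∣ j * k := by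
    intro k j
    rw [← pow_mul]
    exact hζ.pow_eq_one_iff_dvd _
  constructor
  · rw [hk, h1, h1, ← Finset.card_union_of_disjoint]
    · congr 1
      ext i
      simp only [Finset.mem_filter, Finset.mem_univ, true_and, Finset.mem_union]
      obtain ⟨j, hj, h⟩ := h2 i
      rw [← h, h4]
      constructor
      · intro h5
        have : j = 0 ∨ j = 3 := by omega
        rcases this with rfl | rfl
        · exact Or.inl rfl
        · exact Or.inr rfl
      · rintro (h5 | h5)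
        · have := hζ.pow_inj hj (by norm_num) h5
          omega
        · have := hζ.pow_inj hj (by norm_num) h5
          omega
    · rw [Finset.disjoint_filter]
      intro i _ h5 h6
      exact h3 0 3 (by norm_num) (by norm_num) (by norm_num) (h5.symm.trans h6)
  · rw [hk, h1, h1, h1, ← Finset.card_union_of_disjoint, ← Finset.card_union_of_disjoint]
    · congr 1
      ext i
      simp only [Finset.mem_filter, Finset.mem_univ, true_and, Finset.mem_union]
      obtain ⟨j, hj, h⟩ := h2 i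
      rw [← h, h4]
      constructor
      · intro h5
        have : j = 0 ∨ j = 2 ∨ j = 4 := by omega
        rcases this with rfl | rfl | rfl
        · exact Or.inl (Or.inl rfl)
        · exact Or.inl (Or.inr rfl)
        · exact Or.inr rfl
      · rintro ((h5 | h5) | h5)
        · have := hζ.pow_inj hj (by norm_num) h5
          omega
        · have := hζ.pow_inj hj (by norm_num) h5
          omega
        · have := hζ.pow_inj hj (by norm_num) h5
          omega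
    · rw [Finset.disjoint_union_left, Finset.disjoint_filter, Finset.disjoint_filter]
      exact ⟨fun i _ h5 h6 => h3 0 4 (by norm_num) (by norm_num) (by norm_num) (h5.symm.trans h6),
        fun i _ h5 h6 => h3 2 4 (by norm_num) (by norm_num) (by norm_num) (h5.symm.trans h6)⟩
    · rw [Finset.disjoint_filter]
      intro i _ h5 h6
      exact h3 0 2 (by norm_num) (by norm_num) (by norm_num) (h5.symm.trans h6)

variable {K : Type u} [Field K]

/-- The multiplicities of the eigenvalues `ζ ^ j` of `x` on `V` and on `L` are `dg v j`, `dg l j`, `m = 6`. -/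
structure Mult6 (ζ : K) (x : ↥(Zgrp K)) (v l : ℕ) : Prop where
  evV : ∀ j < 6, ev (V K x) (ζ ^ j) = dg v j
  evL : ∀ j < 6, ev (L K x) (ζ ^ j) = dg l j
  trV : LinearMap.trace K _ (V K x) = ∑ j ∈ Finset.range 6, (dg v j : K) * ζ ^ j
  trL : LinearMap.trace K _ (L K x) = ∑ j ∈ Finset.range 6, (dg l j : K) * ζ ^ j
  conjV : ∀ k, k.Coprime 6 → (∃ g, g * x * g⁻¹ = x ^ k) → ∀ j < 6, dg v (k * j % 6) = dg v j
  conjL : ∀ k, k.Coprime 6 → (∃ g, g * x * g⁻¹ = x ^ k) → ∀ j < 6, dg l (k * j % 6) = dg l j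
  V2 : ev (V K (x ^ 2)) 1 = dg v 0 + dg v 3
  V3 : ev (V K (x ^ 3)) 1 = dg v 0 + dg v 2 + dg v 4
  L2 : ev (L K (x ^ 2)) 1 = dg l 0 + dg l 3
  L3 : ev (L K (x ^ 3)) 1 = dg l 0 + dg l 2 + dg l 4

theorem exists_mult6 [IsAlgClosed K] (p : ℕ) [Fact p.Prime] [CharP K p] (hK : HAlg p K) (hmp : (6 : ℕ).Coprime p)
    {ζ : K} (hζ : IsPrimitiveRoot ζ 6) {x : ↥(Zgrp K)} (hx : x ^ 6 = 1) :
    ∃ q ∈ T6, Mult6 ζ x q.1 q.2 := by
  classical
  have hm0 : (6 : ℕ) ≠ 0 := by norm_num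
  obtain ⟨g, d, hdV, hdL, hdm, htri⟩ := exists_diag p hK hm0 hmp hx
  set t := g * x * g⁻¹ with ht
  have hζ0 : ζ ≠ 0 := hζ.ne_zero hm0
  let z : Kˣ := Units.mk0 ζ hζ0
  have hzu : IsPrimitiveRoot z 6 := by
    rw [← IsPrimitiveRoot.coe_units_iff]
    exact hζ
  have hex : ∀ i, ∃ a < 6, z ^ a = d i := by
    intro i
    have h1 : ((d i : Kˣ) : K) ^ 6 = 1 := by
      rw [← Units.val_pow_eq_pow_val, hdm i, Units.val_one]
    obtain ⟨a, ha', ha⟩ := hζ.eq_pow_of_pow_eq_one h1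
    refine ⟨a, ha', Units.ext ?_⟩
    rw [Units.val_pow_eq_pow_val, ← ha]
    rfl
  choose a ha' ha using hex
  let b : I27 → ZMod 6 := fun i => (a i : ZMod 6)
  have hzp : ∀ n : ℤ, z ^ n = z ^ ((n : ZMod 6).val) := by
    intro n
    rw [← zpow_natCast, ZMod.val_intCast]
    have h1 : z ^ ((6 : ℕ) : ℤ) = 1 := by rw [zpow_natCast]; exact hzu.pow_eq_one
    conv_lhs => rw [← Int.emod_add_mul_ediv n (6 : ℕ)]
    rw [zpow_add, zpow_mul, h1, one_zpow, mul_one]
  have hzinj : ∀ {c c' : ZMod 6}, z ^ c.val = z ^ c'.val → c = c' := by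
    intro c c' h
    exact ZMod.val_injective 6 (hzu.pow_inj (ZMod.val_lt _) (ZMod.val_lt _) h)
  have hdb : ∀ i, d i = z ^ (b i).val := by
    intro i
    rw [← ha i, ← zpow_natCast, hzp]
    simp [b]
  have hb : ∀ x y, rel x y = 2 → b x + b y + b (th x y) = 0 := by
    intro x y hxy
    have h1 := htri x y hxy
    apply hzinj
    rw [hdb, hdb, hdb, ← pow_add, ← pow_add] at h1
    rw [ZMod.val_zero, pow_zero, ← h1, ← zpow_natCast z ((b x).val + (b y).val + (b (th x y)).val), hzp]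
    congr 2
    push_cast
    simp
  obtain ⟨q, hq, hcore⟩ := core6 hb
  refine ⟨q, hq, ?_⟩
  set dV : I27 → K := fun i => (d i : K) with hdVd
  set dL : chevE6.Idx → K := Sum.elim (fun _ => (1 : K))
    (fun r : Fin chevE6.nroots => (((d (row r.val) * (d (sr r.val (row r.val)))⁻¹ : Kˣ)) : K)) with hdLd
  have hLroot : ∀ r : Fin chevE6.nroots, d (row r.val) * (d (sr r.val (row r.val)))⁻¹ =
      z ^ (b (row r.val) - b (sr r.val (row r.val))).val := by
    intro r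
    rw [hdb, hdb, ← zpow_natCast z (b (row r.val)).val, ← zpow_natCast z (b (sr r.val (row r.val))).val, ← zpow_neg,
      ← zpow_add, hzp]
    congr 2
    push_cast
    simp [sub_eq_add_neg]
  have hV : ∀ k : ℕ, V K (t ^ k) = Matrix.toLin' (Matrix.diagonal fun i => dV i ^ k) := by
    intro k
    show Matrix.toLin' (((t ^ k : ↥(Zgrp K)) : GL I27 K) : Matrix I27 I27 K) = _
    rw [Subgroup.coe_pow, Units.val_pow_eq_pow_val, hdV, Matrix.diagonal_pow]
    rfl
  have hL : ∀ k : ℕ, L K (t ^ k) = Matrix.toLin' (Matrix.diagonal fun i => dL i ^ k) := by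
    intro k
    show Matrix.toLin' (((ad K (t ^ k) : ↥(chevE6.group K)) : GL chevE6.Idx K) : Matrix chevE6.Idx chevE6.Idx K) = _
    rw [map_pow, Subgroup.coe_pow, Units.val_pow_eq_pow_val, hdL, Matrix.diagonal_pow]
    rfl
  have hzm : ∀ c : ZMod 6, ((z ^ c.val : Kˣ) : K) ^ 6 = 1 := by
    intro c
    rw [← Units.val_pow_eq_pow_val, ← pow_mul, mul_comm, pow_mul, hzu.pow_eq_one, one_pow, Units.val_one]
  have hζz : ∀ j : ℕ, ζ ^ j = ((z ^ j : Kˣ) : K) := fun j => by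
    rw [Units.val_pow_eq_pow_val]
    rfl
  have hdV6 : ∀ i, dV i ^ 6 = 1 := fun i => by
    rw [hdVd]; show (d i : K) ^ 6 = 1; rw [hdb]; exact hzm _
  have hdL6 : ∀ i, dL i ^ 6 = 1 := by
    intro i
    rcases i with i | i
    · exact one_pow _
    · rw [hdLd, Sum.elim_inr, hLroot]; exact hzm _
  obtain ⟨v1, v2, v3, -⟩ := diag_facts (V K) hζ hm0 (x := x) (g := g) (d := dV) hV hdV6
  obtain ⟨l1, l2, l3, -⟩ := diag_facts (L K) hζ hm0 (x := x) (g := g) (d := dL) hL hdL6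
  obtain ⟨v5, v6⟩ := diag_pow (V K) hζ (x := x) (g := g) (d := dV) hV hdV6
  obtain ⟨l5, l6⟩ := diag_pow (L K) hζ (x := x) (g := g) (d := dL) hL hdL6
  have eV : ∀ j < 6, ev (V K x) (ζ ^ j) = dg q.1 j := by
    intro j hj
    rw [v1, ← (hcore j hj).1]
    refine congrArg Finset.card (Finset.filter_congr fun i _ => ?_)
    rw [hζz]
    change ((d i : Kˣ) : K) = _ ↔ _
    rw [hdb]
    constructor
    · intro h
      exact hzu.pow_inj (ZMod.val_lt _) hj (Units.ext h)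
    · intro h
      rw [h]
  have eL : ∀ j < 6, ev (L K x) (ζ ^ j) = dg q.2 j := by
    intro j hj
    rw [l1, ← (hcore j hj).2, Finset.card_filter, Fintype.sum_sum_type, ← Finset.card_filter, ← Finset.card_filter]
    congr 1
    · show (Finset.univ.filter fun i : Fin chevE6.rank => (1 : K) = ζ ^ j).card = _
      by_cases h : j = 0
      · subst h
        rw [if_pos rfl, Finset.filter_true_of_mem, Finset.card_univ, Fintype.card_fin]
        · rfl
        · intro i _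
          exact (pow_zero ζ).symm
      · rw [if_neg h, Finset.filter_false_of_mem, Finset.card_empty]
        intro i _ h'
        exact hζ.pow_ne_one_of_pos_of_lt h hj h'.symm
    · show (Finset.univ.filter fun r : Fin 72 => _).card = (Finset.univ.filter fun r : Fin 72 => _).card
      refine congrArg Finset.card (Finset.filter_congr fun r _ => ?_)
      rw [hζz]
      change (((d (row r.val) * (d (sr r.val (row r.val)))⁻¹ : Kˣ)) : K) = _ ↔ _
      rw [hLroot r]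
      constructor
      · intro h
        exact hzu.pow_inj (ZMod.val_lt _) hj (Units.ext h)
      · intro h
        rw [h]
  have hmod : ∀ n : ℕ, ζ ^ n = ζ ^ (n % 6) := by
    intro n
    conv_lhs => rw [← Nat.mod_add_div n 6, pow_add, pow_mul, hζ.pow_eq_one, one_pow, mul_one]
  refine ⟨eV, eL, ?_, ?_, ?_, ?_, ?_, ?_, ?_, ?_⟩
  · rw [v2]
    exact Finset.sum_congr rfl fun j hj => by rw [eV j (Finset.mem_range.1 hj)]
  · rw [l2]
    exact Finset.sum_congr rfl fun j hj => by rw [eL j (Finset.mem_range.1 hj)]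
  · rintro k hk ⟨h, hh⟩ j hj
    rw [← eV j hj, ← eV _ (Nat.mod_lt _ (by norm_num)), ← hmod, ← v3 k j hk, ← hh, ev_conj]
  · rintro k hk ⟨h, hh⟩ j hj
    rw [← eL j hj, ← eL _ (Nat.mod_lt _ (by norm_num)), ← hmod, ← l3 k j hk, ← hh, ev_conj]
  · rw [v5, eV 0 (by norm_num), eV 3 (by norm_num)]
  · rw [v6, eV 0 (by norm_num), eV 2 (by norm_num), eV 4 (by norm_num)]
  · rw [l5, eL 0 (by norm_num), eL 3 (by norm_num)]
  · rw [l6, eL 0 (by norm_num), eL 2 (by norm_num), eL 4 (by norm_num)]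

/-- the list of the tuples `(ev V x³, ev V x², ev L x², tr V x, tr L x, ev V x, ev L x)` -/
def S6' : List (ℕ × ℕ × ℕ × ℤ × ℤ × ℕ × ℕ) := [
  (27, 27, 78, 27, 78, 27, 78), (15, 15, 36, 21, 55, 15, 36), (27, 15, 36, 9, 15, 15, 36),
  (15, 27, 78, 3, -2, 15, 38), (11, 27, 78, -5, 14, 11, 46), (11, 9, 30, 16, 38, 9, 30),
  (15, 9, 24, 12, 25, 9, 20), (15, 15, 36, 3, 1, 9, 18), (27, 9, 30, 0, 6, 9, 30), (27, 9, 24, 0, -3, 9, 24),
  (15, 9, 30, 6, 10, 7, 18), (11, 15, 36, 1, -1, 7, 20), (15, 15, 36, -3, 7, 7, 20), (11, 9, 24, 4, 5, 5, 16),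
  (15, 9, 30, 0, -2, 5, 14), (15, 9, 24, 0, 1, 5, 12), (11, 9, 30, -2, 2, 3, 18)]

/-- the row of `q` -/
def row6 (q : ℕ × ℕ) : ℕ × ℕ × ℕ × ℤ × ℤ × ℕ × ℕ :=
  (dg q.1 0 + dg q.1 2 + dg q.1 4, dg q.1 0 + dg q.1 3, dg q.2 0 + dg q.2 3,
    (dg q.1 0 : ℤ) - dg q.1 3 + dg q.1 1 - dg q.1 2, (dg q.2 0 : ℤ) - dg q.2 3 + dg q.2 1 - dg q.2 2,
    dg q.1 0, dg q.2 0)

theorem spec6 : ∀ q ∈ T6, dg q.1 5 = dg q.1 1 → dg q.1 4 = dg q.1 2 → row6 q ∈ S6' := by decide +kernel

theorem root6 {ζ : K} (hζ : IsPrimitiveRoot ζ 6) : ζ ^ 2 - ζ + 1 = 0 := by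
  have h1 : (ζ ^ 3 - 1) * ((ζ + 1) * (ζ ^ 2 - ζ + 1)) = 0 := by
    have := hζ.pow_eq_one
    linear_combination this
  rcases mul_eq_zero.1 h1 with h2 | h2
  · exact absurd (sub_eq_zero.1 h2) (hζ.pow_ne_one_of_pos_of_lt (by norm_num) (by norm_num))
  · rcases mul_eq_zero.1 h2 with h3 | h3
    · exfalso
      have h4 : ζ ^ 2 = 1 := by rw [eq_neg_of_add_eq_zero_left h3]; ring
      exact hζ.pow_ne_one_of_pos_of_lt (by norm_num) (by norm_num) h4
    · exact h3

/-- real elements over an algebraically closed field -/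
theorem six_closed [IsAlgClosed K] (p : ℕ) [Fact p.Prime] [CharP K p] (hK : HAlg p K) (hp : 5 ≤ p)
    {x : ↥(Zgrp K)} (hx : x ^ 6 = 1) (hr : ∃ g, g * x * g⁻¹ = x⁻¹) :
    ∃ t ∈ S6', ev (V K (x ^ 3)) 1 = t.1 ∧ ev (V K (x ^ 2)) 1 = t.2.1 ∧ ev (L K (x ^ 2)) 1 = t.2.2.1 ∧
      LinearMap.trace K _ (V K x) = ((t.2.2.2.1 : ℤ) : K) ∧ LinearMap.trace K _ (L K x) = ((t.2.2.2.2.1 : ℤ) : K) ∧
      ev (V K x) 1 = t.2.2.2.2.2.1 ∧ ev (L K x) 1 = t.2.2.2.2.2.2 := by
  have hc : (6 : ℕ).Coprime p := by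
    have h2 := cop p Nat.prime_two (by omega)
    have h3 := cop p Nat.prime_three (by omega)
    exact Nat.Coprime.mul_left h2 h3
  obtain ⟨ζ, hζ⟩ := exists_prim (K := K) p hc
  obtain ⟨q, hq, M⟩ := exists_mult6 p hK hc hζ hx
  obtain ⟨g, hg⟩ := hr
  have hg5 : g * x * g⁻¹ = x ^ 5 := by rw [hg]; exact inv_eq_pow hx
  have h1 := M.conjV 5 (by norm_num) ⟨g, hg5⟩ 1 (by norm_num)
  have h2 := M.conjV 5 (by norm_num) ⟨g, hg5⟩ 2 (by norm_num)
  have l1 := M.conjL 5 (by norm_num) ⟨g, hg5⟩ 1 (by norm_num)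
  have l2 := M.conjL 5 (by norm_num) ⟨g, hg5⟩ 2 (by norm_num)
  simp only [Nat.reduceMul, Nat.reduceMod] at h1 h2 l1 l2
  have hs := root6 hζ
  have h3 : ζ ^ 3 = -1 := by linear_combination (ζ + 1) * hs
  have h4 : ζ ^ 4 = -ζ := by linear_combination ζ * h3
  have h5 : ζ ^ 5 = -ζ ^ 2 := by linear_combination ζ ^ 2 * h3
  have e0 := M.evV 0 (by norm_num)
  have f0 := M.evL 0 (by norm_num)
  rw [pow_zero] at e0 f0
  have tV := M.trV
  have tL := M.trL
  simp only [Finset.sum_range_succ, Finset.sum_range_zero, pow_zero, pow_one, zero_add, mul_one, h1, h2, l1, l2, h3, h4,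
    h5] at tV tL
  refine ⟨row6 q, spec6 q hq h1 h2, M.V3, M.V2, M.L2, ?_, ?_, e0, f0⟩
  · rw [tV]
    unfold row6
    push_cast
    linear_combination (((dg q.1 2 : ℕ) : K) - ((dg q.1 1 : ℕ) : K)) * hs
  · rw [tL]
    unfold row6
    push_cast
    linear_combination (((dg q.2 2 : ℕ) : K) - ((dg q.2 1 : ℕ) : K)) * hs

end Cfsg.Agent.H944.E6T

namespace Cfsg.Agent.H163.E6.Tor

open Cfsg Cfsg.Lie Module
open Cfsg.Agent.ChevalleyStructure.E6Min.Tables Cfsg.Agent.ChevalleyStructure.E6Min.Basic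
  Cfsg.Agent.ChevalleyStructure.E6Min.Adjoint
open Cfsg.Agent.H952.F4 (ev)
open Cfsg.Agent.BpExc.TorAll

universe u

/-- Real elements with `x ^ 6 = 1`: the tuple `(ev V x³, ev V x², ev L x², tr V x, tr L x, ev V x, ev L x)`. -/
theorem six_real' (p : ℕ) [Fact p.Prime] {F : Type u} [Field F] [Finite F] [CharP F p] (hp : 5 ≤ p) (x : ↥(Zgrp F))
    (hx : x ^ 6 = 1) (hr : ∃ g, g * x * g⁻¹ = x⁻¹) :
    ∃ t ∈ H944.E6T.S6', ev (V F (x ^ 3)) 1 = t.1 ∧ ev (V F (x ^ 2)) 1 = t.2.1 ∧ ev (L F (x ^ 2)) 1 = t.2.2.1 ∧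
      LinearMap.trace F _ (V F x) = ((t.2.2.2.1 : ℤ) : F) ∧ LinearMap.trace F _ (L F x) = ((t.2.2.2.2.1 : ℤ) : F) ∧
      ev (V F x) 1 = t.2.2.2.2.2.1 ∧ ev (L F x) 1 = t.2.2.2.2.2.2 := by
  have hch : CharP (AlgebraicClosure F) p := charP_of_injective_algebraMap
    (algebraMap F (AlgebraicClosure F)).injective p
  have hK : HAlg p (AlgebraicClosure F) := Cfsg.Agent.H944.RootVals.hAlg_closure p F
  obtain ⟨f, hf⟩ : ∃ f : F →+* AlgebraicClosure F, f = algebraMap F (AlgebraicClosure F) := ⟨_, rfl⟩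
  obtain ⟨g, hg⟩ := hr
  obtain ⟨t, ht, h1, h2, h3, h4, h5, h6, h7⟩ := H944.E6T.six_closed p hK hp (x := H944.E6T.jm f x)
    (by rw [← map_pow, hx, map_one])
    ⟨H944.E6T.jm f g, by rw [← map_inv, ← map_mul, ← map_mul, hg, map_inv]⟩
  refine ⟨t, ht, ?_, ?_, ?_, ?_, ?_, ?_, ?_⟩
  · rw [← h1, ← map_pow, ← H944.E6T.ev_V f, map_one]
  · rw [← h2, ← map_pow, ← H944.E6T.ev_V f, map_one]
  · rw [← h3, ← map_pow, ← H944.E6T.ev_L f, map_one]
  · rw [H944.E6T.trace_V] at h4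
    exact f.injective (by rw [h4, map_intCast])
  · rw [H944.E6T.trace_L] at h5
    exact f.injective (by rw [h5, map_intCast])
  · rw [← h6, ← H944.E6T.ev_V f, map_one]
  · rw [← h7, ← H944.E6T.ev_L f, map_one]

/-- the list of the tuples `(ev V x³, ev V x², ev L x², tr V x, tr L x)` -/
def S6 : List (ℕ × ℕ × ℕ × ℤ × ℤ) := [
  (27, 27, 78, 27, 78), (15, 15, 36, 21, 55), (27, 15, 36, 9, 15), (15, 27, 78, 3, -2), (11, 27, 78, -5, 14),
  (11, 9, 30, 16, 38), (15, 9, 24, 12, 25), (15, 15, 36, 3, 1), (27, 9, 30, 0, 6), (27, 9, 24, 0, -3),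
  (15, 9, 30, 6, 10), (11, 15, 36, 1, -1), (15, 15, 36, -3, 7), (11, 9, 24, 4, 5), (15, 9, 30, 0, -2),
  (15, 9, 24, 0, 1), (11, 9, 30, -2, 2)]

theorem S6_eq : ∀ t ∈ H944.E6T.S6', (t.1, t.2.1, t.2.2.1, t.2.2.2.1, t.2.2.2.2.1) ∈ S6 := by decide +kernel

/-- **Real elements with `x ^ 6 = 1`, characteristic at least 5.** -/
theorem six_real (p : ℕ) [Fact p.Prime] {F : Type u} [Field F] [Finite F] [CharP F p] (hp : 5 ≤ p) (x : ↥(Zgrp F))
    (hx : x ^ 6 = 1) (hr : ∃ g, g * x * g⁻¹ = x⁻¹) :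
    ∃ t ∈ S6, ev (V F (x ^ 3)) 1 = t.1 ∧ ev (V F (x ^ 2)) 1 = t.2.1 ∧ ev (L F (x ^ 2)) 1 = t.2.2.1 ∧
      LinearMap.trace F _ (V F x) = ((t.2.2.2.1 : ℤ) : F) ∧
      LinearMap.trace F _ (L F x) = ((t.2.2.2.2 : ℤ) : F) := by
  obtain ⟨t, ht, h1, h2, h3, h4, h5, -, -⟩ := six_real' p hp x hx hr
  exact ⟨_, S6_eq t ht, h1, h2, h3, h4, h5⟩

end Cfsg.Agent.H163.E6.Tor
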